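-- helper45: package LemFixQuot of S3782 (for helper70): an automorphism has at most as many
-- fixed points on a quotient by an invariant normal subgroup as on the group.
import Mathlib
import Cfsg.Agent.Lib.Helper70.Alp.S3782Defs

set_option autoImplicit false

namespace Cfsg.Agent.Lib.Helper45.Alp

open Cfsg.Agent.Lib.Helper70.Alp

universe u

/-- Package (A) of S3782. -/
theorem lemFixQuot : Cfsg.Agent.Lib.Helper70.Alp.LemFixQuot.{u} := by
  intro G _ _ α N _ h
  classical
  obtain ⟨t, ht⟩ : ∃ t : Set (G ⧸ N), t = {x | quotAut α N h x = x} := ⟨_, rfl⟩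
  have hT : ∀ g : G, g ∈ (QuotientGroup.mk ⁻¹' t : Set G) ↔ g⁻¹ * α g ∈ N := by
    intro g
    rw [Set.mem_preimage, ht, Set.mem_ofPred_eq, quotAut_mk, eq_comm, QuotientGroup.eq]
  have hcardT : Nat.card ↥(QuotientGroup.mk ⁻¹' t : Set G) = Nat.card ↥N * Nat.card ↥t := by
    rw [Nat.card_congr (QuotientGroup.preimageMkEquivSubgroupProdSet N t), Nat.card_prod]
  obtain ⟨f, hf⟩ : ∃ f : ↥(QuotientGroup.mk ⁻¹' t : Set G) → ↥N,
      ∀ g, ((f g : ↥N) : G) = (g : G)⁻¹ * α (g : G) :=
    ⟨fun g => ⟨(g : G)⁻¹ * α (g : G), (hT g).mp g.2⟩, fun g => rfl⟩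
  have hfib : ∀ y : ↥N, Nat.card {x // f x = y} ≤ Nat.card {g : G // α g = g} := by
    intro y
    by_cases hne : Nonempty {x // f x = y}
    · obtain ⟨⟨x0, hx0⟩⟩ := hne
      have hfix : ∀ x : {x // f x = y}, α ((x.1 : G) * (x0 : G)⁻¹) = (x.1 : G) * (x0 : G)⁻¹ := by
        intro x
        have h1 : ((x.1 : G))⁻¹ * α (x.1 : G) = (x0 : G)⁻¹ * α (x0 : G) := by
          rw [← hf, ← hf, x.2, hx0]
        have h2 : α (x.1 : G) = (x.1 : G) * ((x0 : G)⁻¹ * α (x0 : G)) := by
          rw [← h1]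
          group
        rw [map_mul, map_inv, h2]
        group
      refine Nat.card_le_card_of_injective
        (fun x => (⟨(x.1 : G) * (x0 : G)⁻¹, hfix x⟩ : {g : G // α g = g})) ?_
      intro x x' hxx
      have h3 : (x.1 : G) * (x0 : G)⁻¹ = (x'.1 : G) * (x0 : G)⁻¹ := congrArg Subtype.val hxx
      exact Subtype.ext (Subtype.ext (mul_right_cancel h3))
    · rw [not_nonempty_iff] at hne
      rw [Nat.card_of_isEmpty]
      exact Nat.zero_le _
  have hsum : Nat.card ↥(QuotientGroup.mk ⁻¹' t : Set G) ≤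
      Nat.card ↥N * Nat.card {g : G // α g = g} := by
    have : Fintype ↥N := Fintype.ofFinite _
    rw [← Nat.card_congr (Equiv.sigmaFiberEquiv f), Nat.card_sigma]
    calc ∑ y : ↥N, Nat.card {x // f x = y} ≤ ∑ _y : ↥N, Nat.card {g : G // α g = g} :=
          Finset.sum_le_sum (fun y _ => hfib y)
      _ = Nat.card ↥N * Nat.card {g : G // α g = g} := by
          rw [Finset.sum_const, Finset.card_univ, smul_eq_mul, Nat.card_eq_fintype_card (α := ↥N)]
  rw [hcardT] at hsum
  have hle := Nat.le_of_mul_le_mul_left hsum Nat.card_pos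
  rw [ht] at hle
  exact hle

end Cfsg.Agent.Lib.Helper45.Alp
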