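-- helper45: package LemGenCard of S3782 (for helper70): a finite commutative group of exponent
-- dividing `m` generated by a finite set `S` has order at most `m ^ S.card`.
import Mathlib
import Cfsg.Agent.Lib.Helper70.Alp.S3782Defs

set_option autoImplicit false

namespace Cfsg.Agent.Lib.Helper45.Alp

universe u

/-- in a commutative group the join of two subgroups has at most the product of the orders -/
theorem card_sup_le_mul {V : Type u} [CommGroup V] [Finite V] (A B : Subgroup V) :
    Nat.card ↥(A ⊔ B) ≤ Nat.card ↥A * Nat.card ↥B := by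
  rw [← Nat.card_prod]
  refine Nat.card_le_card_of_surjective
    (fun q : ↥A × ↥B => (⟨(q.1 : V) * (q.2 : V), Subgroup.mul_mem_sup q.1.2 q.2.2⟩ : ↥(A ⊔ B))) ?_
  rintro ⟨x, hx⟩
  obtain ⟨y, hy, z, hz, rfl⟩ := Subgroup.mem_sup.mp hx
  exact ⟨(⟨y, hy⟩, ⟨z, hz⟩), rfl⟩

/-- the subgroup generated by a finite set in a commutative group of exponent dividing `m` -/
theorem card_closure_le {V : Type u} [CommGroup V] [Finite V] (m : ℕ) (hm : 0 < m)
    (hexp : ∀ v : V, v ^ m = 1) (S : Finset V) :
    Nat.card ↥(Subgroup.closure (S : Set V)) ≤ m ^ S.card := by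
  classical
  induction S using Finset.induction_on with
  | empty => simp
  | insert a S ha ih =>
    rw [Finset.card_insert_of_notMem ha, Finset.coe_insert, Set.insert_eq, Subgroup.closure_union,
      ← Subgroup.zpowers_eq_closure]
    have h1 : Nat.card ↥(Subgroup.zpowers a) ≤ m := by
      rw [Nat.card_zpowers]
      exact Nat.le_of_dvd hm (orderOf_dvd_of_pow_eq_one (hexp a))
    calc Nat.card ↥(Subgroup.zpowers a ⊔ Subgroup.closure (S : Set V))
        ≤ Nat.card ↥(Subgroup.zpowers a) * Nat.card ↥(Subgroup.closure (S : Set V)) :=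
          card_sup_le_mul _ _
      _ ≤ m * m ^ S.card := Nat.mul_le_mul h1 ih
      _ = m ^ (S.card + 1) := by rw [pow_succ, mul_comm]

/-- Package (C0) of S3782. -/
theorem lemGenCard : Cfsg.Agent.Lib.Helper70.Alp.LemGenCard.{u} := by
  intro V _ _ S m hm hgen hexp
  have h1 := card_closure_le m hm hexp S
  rw [hgen, Subgroup.card_top] at h1
  exact h1

end Cfsg.Agent.Lib.Helper45.Alp
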